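import Mathlib
import Cfsg.Agent.MaxSub.SingerN.Spread

/-!
A group transitive on pairs of independent points of `Fⁿ`, `n ≥ 5`, having an element trivial
modulo a line contains `SL(n, F)`.
-/

set_option autoImplicit false
set_option linter.unusedSectionVars false

namespace Cfsg.Agent.MaxSub.SingerN

open Matrix Cfsg.Geo
open Cfsg.Agent.MaxSub.SingerFive (PairTrans Cen lin lin_mul_apply lin_one_apply lin_inv_apply lin_apply_inv
  natCard_submodule eq_one_of_lin)
open scoped MatrixGroups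

variable {F : Type*} [Field F] {n : ℕ} {X : Subgroup (GL (Fin n) F)}

local notation "V" => (Fin n → F)

/-- The functionals of the transvections of `X` with centre `c`. -/
def axes (X : Subgroup (GL (Fin n) F)) (c : Fin n → F) : Set ((Fin n → F) →ₗ[F] F) :=
  {ψ | ∃ h : ψ c = 0, GeoClasses.transv ψ c h ∈ X}

lemma transv_zero (c : V) (h : (0 : V →ₗ[F] F) c = 0) : GeoClasses.transv (0 : V →ₗ[F] F) c h = 1 :=
  GeoClasses.gl_ext_mulVec fun v => by rw [GeoClasses.transv_mulVec]; simp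

lemma transv_mul {ψ χ : V →ₗ[F] F} {c : V} (h : ψ c = 0) (h' : χ c = 0) (h'' : (ψ + χ) c = 0) :
    GeoClasses.transv ψ c h * GeoClasses.transv χ c h' = GeoClasses.transv (ψ + χ) c h'' := by
  refine GeoClasses.gl_ext_mulVec fun v => ?_
  rw [Units.val_mul, ← Matrix.mulVec_mulVec]
  simp only [GeoClasses.transv_mulVec, map_add, map_smul, h, LinearMap.add_apply, smul_eq_mul,
    mul_zero, add_zero]
  module

/-- The axes at `c` form an additive subgroup. -/
def axesGroup (X : Subgroup (GL (Fin n) F)) (c : Fin n → F) : AddSubgroup ((Fin n → F) →ₗ[F] F) where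
  carrier := axes X c
  zero_mem' := ⟨by simp, by rw [transv_zero]; exact X.one_mem⟩
  add_mem' := by
    rintro ψ χ ⟨h, hψ⟩ ⟨h', hχ⟩
    refine ⟨by simp [h, h'], ?_⟩
    rw [← transv_mul h h']
    exact X.mul_mem hψ hχ
  neg_mem' := by
    rintro ψ ⟨h, hψ⟩
    refine ⟨by simp [h], ?_⟩
    have hinv : GeoClasses.transv (-ψ) c (by simp [h]) = (GeoClasses.transv ψ c h)⁻¹ := by
      rw [eq_inv_iff_mul_eq_one, transv_mul _ h (by simp), ← transv_zero c (by simp)]
      congr 1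
      simp
    rw [hinv]
    exact X.inv_mem hψ

lemma axes_conj {ψ : V →ₗ[F] F} {c d : V} (hψ : ψ ∈ axes X c) {k : GL (Fin n) F} (hk : k ∈ X) {a : F}
    (ea : lin k c = a • d) (ha : a ≠ 0) : a • (ψ ∘ₗ lin k⁻¹) ∈ axes X d := by
  obtain ⟨h, hmem⟩ := hψ
  have hd : lin k⁻¹ d = a⁻¹ • c := by
    have h' := congrArg (lin k⁻¹) ea
    rw [lin_inv_apply, map_smul] at h'
    exact ((inv_smul_eq_iff₀ ha).2 h').symm
  have h' : (a • (ψ ∘ₗ lin k⁻¹)) d = 0 := by
    rw [LinearMap.smul_apply, LinearMap.comp_apply, hd, map_smul, h, smul_zero, smul_zero]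
  refine ⟨h', ?_⟩
  have h'' : (ψ ∘ₗ Matrix.toLin' ((k⁻¹ : GL (Fin n) F) : Matrix (Fin n) (Fin n) F))
      ((k : Matrix (Fin n) (Fin n) F) *ᵥ c) = 0 := by
    show ψ (lin k⁻¹ (lin k c)) = 0
    rw [lin_inv_apply, h]
  have e := GeoClasses.conj_transv k ψ c h h''
  have key : GeoClasses.transv (a • (ψ ∘ₗ lin k⁻¹)) d h' = k * GeoClasses.transv ψ c h * k⁻¹ := by
    rw [e]
    refine GeoClasses.gl_ext_mulVec fun v => ?_
    rw [GeoClasses.transv_mulVec, GeoClasses.transv_mulVec]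
    have ea' : (k : Matrix (Fin n) (Fin n) F) *ᵥ c = a • d := by simpa using ea
    rw [ea', LinearMap.smul_apply, smul_eq_mul, mul_comm, ← smul_smul]
  rw [key]
  exact X.mul_mem (X.mul_mem hk hmem) (X.inv_mem hk)

variable [Fintype F]

/-- The arithmetic: a set of `s` multiples on every line gives everything. -/
theorem pow_eq_of_count {p n k e s : ℕ} (hp : p.Prime) (hn : 0 < n) (hk : 2 ≤ k) (he : e ≤ k * n)
    (hs : 1 ≤ s) (h : (p ^ n - 1) * (p ^ e - 1) = s * ((p ^ n) ^ k - 1)) : e = k * n := by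
  set q := p ^ n with hq
  have hq2 : 2 ≤ q := le_trans hp.two_le (Nat.le_self_pow (by omega) p)
  obtain ⟨N, hN⟩ : q - 1 ∣ q ^ k - 1 := by simpa using Nat.sub_dvd_pow_sub_pow q 1 k
  rw [hN, ← mul_assoc, mul_comm s, mul_assoc] at h
  have hPE : p ^ e - 1 = s * N := Nat.eq_of_mul_eq_mul_left (by omega) h
  have hpe : 1 ≤ p ^ e := Nat.one_le_pow _ _ hp.pos
  have hle : p ^ e ≤ q ^ k := by
    rw [hq, ← pow_mul, mul_comm n]; exact Nat.pow_le_pow_right hp.pos he
  obtain ⟨d, hd⟩ : ∃ d, k * n = e + d := ⟨k * n - e, by omega⟩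
  by_contra hne
  have hd1 : 1 ≤ d := by omega
  have hqk : q ^ k = p ^ e * p ^ d := by rw [hq, ← pow_mul, mul_comm n, hd, pow_add]
  have hqk' : q ^ k = q ^ (k - 1) * q := by rw [← pow_succ]; congr 1; omega
  have hqk1 : q ≤ q ^ (k - 1) := Nat.le_self_pow (by omega) q
  have hNbig : q ^ (k - 1) < N := by
    by_contra hcon
    push Not at hcon
    have h1 : (q - 1) * N ≤ (q - 1) * q ^ (k - 1) := Nat.mul_le_mul_left _ hcon
    rw [← hN, Nat.sub_mul, one_mul, mul_comm q, ← hqk'] at h1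
    have h2 : q ^ (k - 1) * 2 ≤ q ^ (k - 1) * q := Nat.mul_le_mul_left _ hq2
    omega
  have hbig : q ^ (k - 1) < p ^ e := by
    have : N ≤ s * N := Nat.le_mul_of_pos_left _ hs
    omega
  have hsmall : p ^ d < q := by
    by_contra hc
    push Not at hc
    have : q ^ (k - 1) * q < p ^ e * p ^ d :=
      lt_of_lt_of_le (Nat.mul_lt_mul_of_pos_right hbig (by omega)) (Nat.mul_le_mul_left _ hc)
    rw [← hqk, ← hqk'] at this
    exact lt_irrefl _ this
  have hdvd : N ∣ p ^ e * (p ^ d - 1) := by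
    have h1 : N ∣ q ^ k - 1 := ⟨q - 1, by rw [hN, mul_comm]⟩
    have h2 : N ∣ p ^ e - 1 := ⟨s, by rw [hPE, mul_comm]⟩
    have h3 := Nat.dvd_sub h1 h2
    rw [show q ^ k - 1 - (p ^ e - 1) = q ^ k - p ^ e by omega, hqk] at h3
    rwa [Nat.mul_sub, mul_one]
  have hcop : Nat.Coprime N (p ^ e) := by
    refine Nat.Coprime.pow_right _ ((Nat.coprime_comm).1 ((Nat.Prime.coprime_iff_not_dvd hp).2 fun hpN => ?_))
    have hpq : p ∣ q ^ k := dvd_pow (dvd_pow_self p (by omega)) (by omega)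
    have h1 : p ∣ q ^ k - 1 := hN ▸ hpN.mul_left _
    have h2 := Nat.dvd_sub hpq h1
    rw [show q ^ k - (q ^ k - 1) = 1 by omega] at h2
    exact hp.not_dvd_one h2
  have h4 := hcop.dvd_of_dvd_mul_left hdvd
  have hpd : 2 ≤ p ^ d := le_trans hp.two_le (Nat.le_self_pow (by omega) p)
  have := Nat.le_of_dvd (by omega) h4
  omega

/-- A pair-transitive subgroup of `GL(5, F)` contains `SL(5, F)`. -/
theorem specialLinear_le_of_cen (hn : 5 ≤ n) (hX : PairTrans X) {g₀ : GL (Fin n) F}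
    {x₀ u₀ : Fin n → F} (h₀ : Cen X g₀ x₀ u₀) : specialLinear (Fin n) F ≤ X := by
  classical
  haveI : Nontrivial (Fin n) := Fin.nontrivial_iff_two_le.2 (by omega)
  obtain ⟨p, hchar⟩ := CharP.exists F
  haveI : Fact p.Prime := ⟨CharP.char_is_prime F p⟩
  obtain ⟨r, hp, hr⟩ := FiniteField.card F p
  haveI : Finite (V →ₗ[F] F) := Finite.of_injective (fun φ => (φ : V → F)) DFunLike.coe_injective
  have htr := exists_transvection hn hX ⟨g₀, x₀, u₀, h₀⟩
  simp only [NoTransv, not_forall] at htr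
  obtain ⟨g, hg, w, hgw, himg, hg1⟩ := htr
  have hw : w ≠ 0 := by
    rintro rfl
    refine hg1 (eq_one_of_lin fun v => ?_)
    have := himg v
    rw [Submodule.mem_span_singleton] at this
    obtain ⟨c, hc⟩ := this
    rw [smul_zero] at hc
    exact sub_eq_zero.1 hc.symm
  obtain ⟨θ, hθw, -⟩ := GeoClasses.exists_functional (p := (⊥ : Submodule F V)) (x := w) (by simpa using hw)
  set ψ₀ : V →ₗ[F] F := θ ∘ₗ (lin g - LinearMap.id) with hψ₀
  have hψw : ψ₀ w = 0 := by simp only [hψ₀, LinearMap.comp_apply, LinearMap.sub_apply,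
    LinearMap.id_apply, hgw, sub_self, map_zero]
  have hgv : ∀ v, lin g v = v + ψ₀ v • w := by
    intro v
    obtain ⟨c, hc⟩ := Submodule.mem_span_singleton.1 (himg v)
    simp only [hψ₀, LinearMap.comp_apply, LinearMap.sub_apply, LinearMap.id_apply]
    rw [← hc, map_smul, hθw, smul_eq_mul, mul_one, hc]
    abel
  have hmem₀ : ψ₀ ∈ axes X w := by
    refine ⟨hψw, ?_⟩
    have : GeoClasses.transv ψ₀ w hψw = g := GeoClasses.gl_ext_mulVec fun v => by
      rw [GeoClasses.transv_mulVec]; simpa using (hgv v).symm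
    rw [this]; exact hg
  have hψ₀0 : ψ₀ ≠ 0 := fun h => hg1 (eq_one_of_lin fun v => by rw [hgv, h]; simp)
  refine GeoClasses.specialLinear_le_of_transv_mem fun φ c hφc => ?_
  rcases eq_or_ne φ 0 with rfl | hφ
  · rw [transv_zero]; exact X.one_mem
  rcases eq_or_ne c 0 with rfl | hc
  · rw [show GeoClasses.transv φ (0 : V) hφc = 1 from GeoClasses.gl_ext_mulVec fun v => by
      rw [GeoClasses.transv_mulVec]; simp]
    exact X.one_mem
  -- some transvection at every incident pair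
  obtain ⟨k, hk, a, ha, ea⟩ := hX.exists_point (by omega) hw hc
  set ψ₁ := a • (ψ₀ ∘ₗ lin k⁻¹) with hψ₁
  have hmem₁ : ψ₁ ∈ axes X c := axes_conj hmem₀ hk ea ha
  have hψ₁0 : ψ₁ ≠ 0 := fun h => hψ₀0 (LinearMap.ext fun v => by
    have := DFunLike.congr_fun h (lin k v)
    rw [hψ₁, LinearMap.smul_apply, LinearMap.comp_apply, lin_inv_apply, LinearMap.zero_apply,
      smul_eq_mul, mul_eq_zero] at this
    exact this.resolve_left ha)
  let D := {θ : V →ₗ[F] F // θ ≠ 0 ∧ θ c = 0}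
  let T : D → Type _ := fun θ => {t : Fˣ // (t : F) • θ.1 ∈ axes X c}
  have hmap : ∀ θ θ' : D, Nat.card (T θ) ≤ Nat.card (T θ') := by
    intro θ θ'
    obtain ⟨k, hk, a, s, ha, hs, ea, es⟩ :=
      hX.exists_dual (by omega) hc θ.2.1 θ'.2.1 (by simp [θ.2.2, θ'.2.2])
    refine Nat.card_le_card_of_injective
      (fun t : T θ => (⟨t.1 * Units.mk0 (a * s⁻¹) (mul_ne_zero ha (inv_ne_zero hs)), ?_⟩ : T θ')) ?_
    · have h := axes_conj t.2 hk ea ha
      convert h using 1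
      refine LinearMap.ext fun v => ?_
      have e := es (lin k⁻¹ v)
      rw [lin_apply_inv] at e
      simp only [LinearMap.smul_apply, LinearMap.comp_apply, Units.val_mul, Units.val_mk0, smul_eq_mul, e]
      field_simp
    · intro t t' e
      exact Subtype.ext (mul_right_cancel (congrArg Subtype.val e))
  let θ₁ : D := ⟨ψ₁, hψ₁0, hmem₁.1⟩
  set s := Nat.card (T θ₁) with hsdef
  have hs : 1 ≤ s := by
    haveI : Nonempty (T θ₁) :=
      ⟨⟨1, show ((1 : Fˣ) : F) • ψ₁ ∈ axes X c by rw [Units.val_one, one_smul]; exact hmem₁⟩⟩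
    exact Nat.card_pos
  have hT : ∀ θ : D, Nat.card (T θ) = s := fun θ => le_antisymm (hmap _ _) (hmap _ _)
  let W := {ψ : V →ₗ[F] F // ψ ∈ axes X c ∧ ψ ≠ 0}
  have e1 : Nat.card (Σ θ : D, T θ) = Nat.card (Fˣ × W) := by
    refine Nat.card_congr ⟨fun z => (z.2.1, ⟨(z.2.1 : F) • z.1.1, z.2.2, smul_ne_zero (Units.ne_zero _) z.1.2.1⟩),
      fun z => ⟨⟨((z.1⁻¹ : Fˣ) : F) • z.2.1, smul_ne_zero (Units.ne_zero _) z.2.2.2, by
        rw [LinearMap.smul_apply, z.2.2.1.1, smul_zero]⟩, ⟨z.1, by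
        rw [smul_smul, Units.mul_inv, one_smul]; exact z.2.2.1⟩⟩, ?_, ?_⟩
    · rintro ⟨θ, t⟩
      refine Sigma.subtype_ext (Subtype.ext ?_) rfl
      show ((t.1⁻¹ : Fˣ) : F) • ((t.1 : F) • θ.1) = θ.1
      rw [smul_smul, Units.inv_mul, one_smul]
    · rintro ⟨t, ψ⟩
      refine Prod.ext rfl (Subtype.ext ?_)
      show (t : F) • (((t⁻¹ : Fˣ) : F) • ψ.1) = ψ.1
      rw [smul_smul, Units.mul_inv, one_smul]
  haveI : Fintype D := Fintype.ofFinite D
  rw [Nat.card_sigma, Finset.sum_congr rfl (fun θ _ => hT θ), Finset.sum_const, Finset.card_univ,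
    smul_eq_mul, Nat.card_prod, Nat.card_units, Nat.card_eq_fintype_card (α := F), hr] at e1
  -- the cardinalities
  let K := LinearMap.ker (LinearMap.applyₗ c : (V →ₗ[F] F) →ₗ[F] F)
  obtain ⟨χ, hχ, -⟩ := GeoClasses.exists_functional (p := (⊥ : Submodule F V)) (x := c) (by simpa using hc)
  have hsur : Function.Surjective (LinearMap.applyₗ c : (V →ₗ[F] F) →ₗ[F] F) :=
    fun t => ⟨t • χ, by simp [hχ]⟩
  have hK : Nat.card K = (p ^ (r : ℕ)) ^ (n - 1) := by
    have h1 := LinearMap.finrank_range_add_finrank_ker (LinearMap.applyₗ c : (V →ₗ[F] F) →ₗ[F] F)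
    rw [LinearMap.range_eq_top.2 hsur, finrank_top, Module.finrank_self, Subspace.dual_finrank_eq,
      Module.finrank_fin_fun] at h1
    rw [natCard_submodule, Nat.card_eq_fintype_card, hr,
      show Module.finrank F K = n - 1 from by show Module.finrank F (LinearMap.ker _) = n - 1; omega]
  have hD : Fintype.card D + 1 = (p ^ (r : ℕ)) ^ (n - 1) := by
    rw [← hK, ← Nat.card_eq_fintype_card]
    have e : D ≃ {θ : K // θ ≠ 0} :=
      ⟨fun θ => ⟨⟨θ.1, θ.2.2⟩, fun h => θ.2.1 (congrArg Subtype.val h)⟩,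
        fun θ => ⟨θ.1.1, fun h => θ.2 (Subtype.ext h), θ.1.2⟩, fun _ => rfl, fun _ => rfl⟩
    rw [Nat.card_congr e, ← Finite.card_option]
    exact Nat.card_congr (Equiv.optionSubtypeNe (0 : K))
  have hW : Nat.card W + 1 = Nat.card (axesGroup X c) := by
    have e : W ≃ {ψ : axesGroup X c // ψ ≠ 0} :=
      ⟨fun ψ => ⟨⟨ψ.1, ψ.2.1⟩, fun h => ψ.2.2 (congrArg Subtype.val h)⟩,
        fun ψ => ⟨ψ.1.1, ψ.1.2, fun h => ψ.2 (Subtype.ext h)⟩, fun _ => rfl, fun _ => rfl⟩
    rw [Nat.card_congr e, ← Finite.card_option]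
    exact Nat.card_congr (Equiv.optionSubtypeNe (0 : axesGroup X c))
  let inc : axesGroup X c → K := fun ψ => ⟨ψ.1, ψ.2.1⟩
  have hinc : Function.Injective inc := fun a b e =>
    Subtype.ext (congrArg (fun z : K => z.1) e)
  let inc' : axesGroup X c →+ K.toAddSubgroup :=
    { toFun := fun ψ => ⟨ψ.1, ψ.2.1⟩, map_zero' := rfl, map_add' := fun _ _ => rfl }
  have hdvd : Nat.card (axesGroup X c) ∣ Nat.card K.toAddSubgroup :=
    AddSubgroup.card_dvd_of_injective inc' fun a b e =>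
      Subtype.ext (congrArg (fun z : K.toAddSubgroup => z.1) e)
  rw [show Nat.card K.toAddSubgroup = Nat.card K from rfl, hK, ← pow_mul, mul_comm (r : ℕ)] at hdvd
  obtain ⟨e, he, hE⟩ := (Nat.dvd_prime_pow (Fact.out : p.Prime)).1 hdvd
  have he4 : e = (n - 1) * (r : ℕ) := by
    refine pow_eq_of_count (s := s) (Fact.out : p.Prime) r.pos (by omega) he hs ?_
    have hD' : Fintype.card D = (p ^ (r : ℕ)) ^ (n - 1) - 1 := by omega
    have hW' : Nat.card W = p ^ e - 1 := by omega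
    rw [← hW', ← e1, hD', mul_comm]
  have hbij : Function.Bijective inc :=
    (Nat.bijective_iff_injective_and_card inc).2 ⟨hinc, by rw [hE, hK, he4, ← pow_mul, mul_comm (r : ℕ)]⟩
  obtain ⟨ψ, hψ⟩ := hbij.2 ⟨φ, hφc⟩
  have hmem : φ ∈ axes X c := by
    have : ψ.1 = φ := congrArg (fun z : K => z.1) hψ
    exact this ▸ ψ.2
  exact hmem.2

end Cfsg.Agent.MaxSub.SingerN
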